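import Cfsg.Agent.Lib.helper11.ChevBN2
import Cfsg.Agent.S1032

/-! Perfectness of Chevalley groups: generic lemmas. -/

set_option autoImplicit false

namespace Cfsg.Agent.Lib.helper11

open Cfsg Cfsg.Lie
open scoped commutatorElement

/-- the image in `GL` of the derived subgroup -/
def derivedGL {F : Type*} [Field F] (D : ChevalleyDatum) : Subgroup (GL D.Idx F) :=
  (commutator ↥(D.group F)).map (D.group F).subtype

theorem comm_mem_derived {F : Type*} [Field F] (D : ChevalleyDatum) (a b : GL D.Idx F)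
    (ha : a ∈ D.group F) (hb : b ∈ D.group F) : a * b * a⁻¹ * b⁻¹ ∈ derivedGL (F := F) D := by
  refine ⟨⁅(⟨a, ha⟩ : ↥(D.group F)), ⟨b, hb⟩⁆, ?_, ?_⟩
  · rw [SetLike.mem_coe, commutator_def]
    exact Subgroup.commutator_mem_commutator (Subgroup.mem_top _) (Subgroup.mem_top _)
  · rw [commutatorElement_def]
    rfl

theorem conj_mem_derived {F : Type*} [Field F] (D : ChevalleyDatum) (g x : GL D.Idx F)
    (hg : g ∈ D.group F) (hx : x ∈ derivedGL (F := F) D) : g * x * g⁻¹ ∈ derivedGL (F := F) D := by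
  obtain ⟨y, hy, rfl⟩ := hx
  have hn : (commutator ↥(D.group F)).Normal := inferInstance
  exact ⟨⟨g, hg⟩ * y * ⟨g, hg⟩⁻¹, hn.conj_mem y hy _, rfl⟩

theorem perfect_of_simple {F : Type*} [Field F] (D : ChevalleyDatum)
    (hD : D ∈ [chevG2, chevB2, chevD4, chevF4, chevE6, chevE7, chevE8]) (hnx : NXAll D)
    (hc : HCert D)
    (h : ∀ j < D.rank, ∀ t : F, xU D hD (D.simple j) t ∈ derivedGL (F := F) D) :
    commutator ↥(D.group F) = ⊤ := by
  have all : ∀ r < D.nroots, ∀ t : F, xU D hD r t ∈ derivedGL (F := F) D := by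
    apply root_induction D (fun i hi => (hnx i hi).1) hc.1
      (fun r => ∀ t : F, xU D hD r t ∈ derivedGL (F := F) D) h
    intro i hi s hs ih t
    have hN := ok_of_mem D hD i hi
    have e := nU_conj_x (F := F) D hD hnx i s hi hs (((eta D i s : ℤ) : F) * t)
    rw [eta_mul_self D i s hN hs] at e
    rw [← e]
    exact conj_mem_derived D _ _ (nU_mem_group D hD _ _) (ih _)
  have hle : D.group F ≤ derivedGL (F := F) D := by
    unfold ChevalleyDatum.group
    rw [Subgroup.closure_le]
    rintro g ⟨r, t, hg⟩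
    have : g = xU D hD r.val t :=
      eq_xU D hD r.val t g (by rw [hg]; simp [ChevalleyDatum.x, r.isLt])
    rw [this]
    exact all r.val r.isLt t
  rw [eq_top_iff]
  intro g _
  obtain ⟨y, hy, e⟩ := hle g.2
  have : y = g := Subtype.ext e
  rwa [this] at hy

/-- a root element which is a commutator of two root elements -/
theorem derived_of_comm {F : Type*} [Field F] (D : ChevalleyDatum)
    (hD : D ∈ [chevG2, chevB2, chevD4, chevF4, chevE6, chevE7, chevE8]) (r s k : ℕ) (c : ℤ)
    (hrel : CommRel F D r s) (hterms : D.commTerms r s = [(k, c, 1, 1)])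
    (hc0 : ((c : ℤ) : F) ≠ 0) (τ : F) : xU D hD k τ ∈ derivedGL (F := F) D := by
  have h1 := hrel (-(τ / (c : F))) 1
  have hw : D.wordMat F (D.commWord F r s (-(τ / (c : F))) 1) = D.x F k τ := by
    unfold ChevalleyDatum.commWord ChevalleyDatum.wordMat
    rw [hterms]
    simp only [List.map_cons, List.map_nil, List.prod_cons, List.prod_nil, mul_one]
    congr 1
    field_simp
  rw [hw] at h1
  have h2 : xU D hD s (1 : F) * xU D hD r (-(τ / (c : F))) =
      xU D hD r (-(τ / (c : F))) * xU D hD s 1 * xU D hD k τ := by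
    apply Units.ext
    simp only [Units.val_mul, xU_val]
    exact h1
  have h3 : xU D hD k τ = (xU D hD s (1 : F))⁻¹ * (xU D hD r (-(τ / (c : F))))⁻¹ *
      (xU D hD s (1 : F))⁻¹⁻¹ * (xU D hD r (-(τ / (c : F))))⁻¹⁻¹ := by
    rw [inv_inv, inv_inv, mul_assoc _ (xU D hD s (1 : F)), h2]
    group
  rw [h3]
  exact comm_mem_derived D _ _ (inv_mem (xU_mem_group D hD _ _)) (inv_mem (xU_mem_group D hD _ _))

/-- a root element which is a commutator with a torus element -/
theorem derived_of_torus {F : Type*} [Field F] (D : ChevalleyDatum)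
    (hD : D ∈ [chevG2, chevB2, chevD4, chevF4, chevE6, chevE7, chevE8]) (i s : ℕ)
    (hi : i < D.rank) (hs : s < D.nroots) (c : F) (hc0 : c ≠ 0)
    (hne : c ^ (D.cartan i s) ≠ 1) (τ : F) : xU D hD s τ ∈ derivedGL (F := F) D := by
  have hd : c ^ (D.cartan i s) - 1 ≠ 0 := sub_ne_zero.mpr hne
  have h1 := Cfsg.Agent.S1032.result D hD i s hi hs c hc0 (τ / (c ^ (D.cartan i s) - 1))
  have h2 : hU D hD (D.simple i) c * xU D hD s (τ / (c ^ (D.cartan i s) - 1)) *
      (hU D hD (D.simple i) c)⁻¹ =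
      xU D hD s (c ^ (D.cartan i s) * (τ / (c ^ (D.cartan i s) - 1))) := by
    rw [mul_inv_eq_iff_eq_mul]
    apply Units.ext
    simp only [Units.val_mul, xU_val, hU_val]
    exact h1
  have h3 : xU D hD s τ = hU D hD (D.simple i) c * xU D hD s (τ / (c ^ (D.cartan i s) - 1)) *
      (hU D hD (D.simple i) c)⁻¹ * (xU D hD s (τ / (c ^ (D.cartan i s) - 1)))⁻¹ := by
    rw [h2, xU_inv, xU_add D hD s hs]
    congr 1
    field_simp
    ring
  rw [h3]
  exact comm_mem_derived D _ _ (hU_mem_group D hD _ _) (xU_mem_group D hD _ _)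

end Cfsg.Agent.Lib.helper11
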