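import Cfsg.Agent.Lib.helper11.ChevPerf
import Cfsg.Agent.Lib.helper11.ChevCommAll

/-! Perfectness of Chevalley groups: certificates and the theorem. -/

set_option autoImplicit false

namespace Cfsg.Agent.Lib.helper11

open Cfsg Cfsg.Lie

theorem pt_D4_0 : (chevD4.commTerms 6 22 = [(chevD4.simple 0, 1, 1, 1)]) ∧ 6 < chevD4.nroots ∧ 22 < chevD4.nroots ∧ 22 ≠ 6 ∧ 22 ≠ chevD4.neg 6 := by decide +kernel
theorem pt_D4_1 : (chevD4.commTerms 1 23 = [(chevD4.simple 1, -1, 1, 1)]) ∧ 1 < chevD4.nroots ∧ 23 < chevD4.nroots ∧ 23 ≠ 1 ∧ 23 ≠ chevD4.neg 1 := by decide +kernel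
theorem pt_D4_2 : (chevD4.commTerms 3 22 = [(chevD4.simple 2, -1, 1, 1)]) ∧ 3 < chevD4.nroots ∧ 22 < chevD4.nroots ∧ 22 ≠ 3 ∧ 22 ≠ chevD4.neg 3 := by decide +kernel
theorem pt_D4_3 : (chevD4.commTerms 2 22 = [(chevD4.simple 3, -1, 1, 1)]) ∧ 2 < chevD4.nroots ∧ 22 < chevD4.nroots ∧ 22 ≠ 2 ∧ 22 ≠ chevD4.neg 2 := by decide +kernel
theorem pt_F4_0 : (chevF4.commTerms 7 44 = [(chevF4.simple 0, -1, 1, 1)]) ∧ 7 < chevF4.nroots ∧ 44 < chevF4.nroots ∧ 44 ≠ 7 ∧ 44 ≠ chevF4.neg 7 := by decide +kernel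
theorem pt_F4_1 : (chevF4.commTerms 8 40 = [(chevF4.simple 1, -1, 1, 1)]) ∧ 8 < chevF4.nroots ∧ 40 < chevF4.nroots ∧ 40 ≠ 8 ∧ 40 ≠ chevF4.neg 8 := by decide +kernel
theorem pt_F4_2 : (chevF4.commTerms 2 46 = [(chevF4.simple 2, -1, 1, 1)]) ∧ 2 < chevF4.nroots ∧ 46 < chevF4.nroots ∧ 46 ≠ 2 ∧ 46 ≠ chevF4.neg 2 := by decide +kernel
theorem pt_F4_3 : (chevF4.commTerms 1 47 = [(chevF4.simple 3, -1, 1, 1)]) ∧ 1 < chevF4.nroots ∧ 47 < chevF4.nroots ∧ 47 ≠ 1 ∧ 47 ≠ chevF4.neg 1 := by decide +kernel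
theorem pt_E6_0 : (chevE6.commTerms 16 66 = [(chevE6.simple 0, 1, 1, 1)]) ∧ 16 < chevE6.nroots ∧ 66 < chevE6.nroots ∧ 66 ≠ 16 ∧ 66 ≠ chevE6.neg 16 := by decide +kernel
theorem pt_E6_1 : (chevE6.commTerms 1 71 = [(chevE6.simple 1, -1, 1, 1)]) ∧ 1 < chevE6.nroots ∧ 71 < chevE6.nroots ∧ 71 ≠ 1 ∧ 71 ≠ chevE6.neg 1 := by decide +kernel
theorem pt_E6_2 : (chevE6.commTerms 5 69 = [(chevE6.simple 2, -1, 1, 1)]) ∧ 5 < chevE6.nroots ∧ 69 < chevE6.nroots ∧ 69 ≠ 5 ∧ 69 ≠ chevE6.neg 5 := by decide +kernel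
theorem pt_E6_3 : (chevE6.commTerms 2 70 = [(chevE6.simple 3, -1, 1, 1)]) ∧ 2 < chevE6.nroots ∧ 70 < chevE6.nroots ∧ 70 ≠ 2 ∧ 70 ≠ chevE6.neg 2 := by decide +kernel
theorem pt_E6_4 : (chevE6.commTerms 3 69 = [(chevE6.simple 4, -1, 1, 1)]) ∧ 3 < chevE6.nroots ∧ 69 < chevE6.nroots ∧ 69 ≠ 3 ∧ 69 ≠ chevE6.neg 3 := by decide +kernel
theorem pt_E6_5 : (chevE6.commTerms 4 68 = [(chevE6.simple 5, -1, 1, 1)]) ∧ 4 < chevE6.nroots ∧ 68 < chevE6.nroots ∧ 68 ≠ 4 ∧ 68 ≠ chevE6.neg 4 := by decide +kernel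
theorem pt_E7_0 : (chevE7.commTerms 1 125 = [(chevE7.simple 0, -1, 1, 1)]) ∧ 1 < chevE7.nroots ∧ 125 < chevE7.nroots ∧ 125 ≠ 1 ∧ 125 ≠ chevE7.neg 1 := by decide +kernel
theorem pt_E7_1 : (chevE7.commTerms 7 122 = [(chevE7.simple 1, -1, 1, 1)]) ∧ 7 < chevE7.nroots ∧ 122 < chevE7.nroots ∧ 122 ≠ 7 ∧ 122 ≠ chevE7.neg 7 := by decide +kernel
theorem pt_E7_2 : (chevE7.commTerms 2 124 = [(chevE7.simple 2, -1, 1, 1)]) ∧ 2 < chevE7.nroots ∧ 124 < chevE7.nroots ∧ 124 ≠ 2 ∧ 124 ≠ chevE7.neg 2 := by decide +kernel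
theorem pt_E7_3 : (chevE7.commTerms 3 123 = [(chevE7.simple 3, -1, 1, 1)]) ∧ 3 < chevE7.nroots ∧ 123 < chevE7.nroots ∧ 123 ≠ 3 ∧ 123 ≠ chevE7.neg 3 := by decide +kernel
theorem pt_E7_4 : (chevE7.commTerms 4 122 = [(chevE7.simple 4, -1, 1, 1)]) ∧ 4 < chevE7.nroots ∧ 122 < chevE7.nroots ∧ 122 ≠ 4 ∧ 122 ≠ chevE7.neg 4 := by decide +kernel
theorem pt_E7_5 : (chevE7.commTerms 5 121 = [(chevE7.simple 5, -1, 1, 1)]) ∧ 5 < chevE7.nroots ∧ 121 < chevE7.nroots ∧ 121 ≠ 5 ∧ 121 ≠ chevE7.neg 5 := by decide +kernel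
theorem pt_E7_6 : (chevE7.commTerms 6 120 = [(chevE7.simple 6, -1, 1, 1)]) ∧ 6 < chevE7.nroots ∧ 120 < chevE7.nroots ∧ 120 ≠ 6 ∧ 120 ≠ chevE7.neg 6 := by decide +kernel
theorem pt_E8_0 : (chevE8.commTerms 14 233 = [(chevE8.simple 0, -1, 1, 1)]) ∧ 14 < chevE8.nroots ∧ 233 < chevE8.nroots ∧ 233 ≠ 14 ∧ 233 ≠ chevE8.neg 14 := by decide +kernel
theorem pt_E8_1 : (chevE8.commTerms 7 234 = [(chevE8.simple 1, -1, 1, 1)]) ∧ 7 < chevE8.nroots ∧ 234 < chevE8.nroots ∧ 234 ≠ 7 ∧ 234 ≠ chevE8.neg 7 := by decide +kernel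
theorem pt_E8_2 : (chevE8.commTerms 6 234 = [(chevE8.simple 2, -1, 1, 1)]) ∧ 6 < chevE8.nroots ∧ 234 < chevE8.nroots ∧ 234 ≠ 6 ∧ 234 ≠ chevE8.neg 6 := by decide +kernel
theorem pt_E8_3 : (chevE8.commTerms 5 235 = [(chevE8.simple 3, -1, 1, 1)]) ∧ 5 < chevE8.nroots ∧ 235 < chevE8.nroots ∧ 235 ≠ 5 ∧ 235 ≠ chevE8.neg 5 := by decide +kernel
theorem pt_E8_4 : (chevE8.commTerms 4 236 = [(chevE8.simple 4, -1, 1, 1)]) ∧ 4 < chevE8.nroots ∧ 236 < chevE8.nroots ∧ 236 ≠ 4 ∧ 236 ≠ chevE8.neg 4 := by decide +kernel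
theorem pt_E8_5 : (chevE8.commTerms 3 237 = [(chevE8.simple 5, -1, 1, 1)]) ∧ 3 < chevE8.nroots ∧ 237 < chevE8.nroots ∧ 237 ≠ 3 ∧ 237 ≠ chevE8.neg 3 := by decide +kernel
theorem pt_E8_6 : (chevE8.commTerms 2 238 = [(chevE8.simple 6, -1, 1, 1)]) ∧ 2 < chevE8.nroots ∧ 238 < chevE8.nroots ∧ 238 ≠ 2 ∧ 238 ≠ chevE8.neg 2 := by decide +kernel
theorem pt_E8_7 : (chevE8.commTerms 1 239 = [(chevE8.simple 7, -1, 1, 1)]) ∧ 1 < chevE8.nroots ∧ 239 < chevE8.nroots ∧ 239 ≠ 1 ∧ 239 ≠ chevE8.neg 1 := by decide +kernel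
theorem pt_B2_1 : (chevB2.commTerms 2 6 = [(chevB2.simple 1, -2, 1, 1)]) ∧ 2 < chevB2.nroots ∧ 6 < chevB2.nroots ∧ 6 ≠ 2 ∧ 6 ≠ chevB2.neg 2 := by decide +kernel

theorem cartan_G2 : chevG2.cartan 0 (chevG2.simple 0) = 2 ∧ chevG2.cartan 1 (chevG2.simple 1) = 2 ∧
    chevG2.cartan 1 (chevG2.simple 0) = -1 ∧ chevG2.cartan 0 (chevG2.simple 1) = -3 ∧
    chevG2.simple 0 < chevG2.nroots ∧ chevG2.simple 1 < chevG2.nroots := by decide +kernel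

theorem cartan_B2 : chevB2.cartan 0 (chevB2.simple 0) = 2 ∧ chevB2.cartan 1 (chevB2.simple 1) = 2 ∧
    chevB2.cartan 1 (chevB2.simple 0) = -1 ∧
    chevB2.simple 0 < chevB2.nroots ∧ chevB2.simple 1 < chevB2.nroots := by decide +kernel

theorem neg_one_zpow_neg_one {F : Type*} [Field F] : (-1 : F) ^ (-1 : ℤ) = -1 := by
  rw [zpow_neg_one, inv_neg, inv_one]

theorem neg_one_zpow_neg_three {F : Type*} [Field F] : (-1 : F) ^ (-3 : ℤ) = -1 := by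
  rw [zpow_neg, zpow_ofNat]
  norm_num

theorem eq_neg_one_of_sq {F : Type*} [Field F] (a : F) (h : a ^ 2 = 1) (h1 : a ≠ 1) : a = -1 := by
  have : (a - 1) * (a + 1) = 0 := by linear_combination h
  rcases mul_eq_zero.mp this with h | h
  · exact absurd (sub_eq_zero.mp h) h1
  · exact eq_neg_of_add_eq_zero_left h

/-- Chevalley groups are perfect (`G₂`, `B₂` over fields with more than two elements) -/
theorem perfect_of_mem {F : Type*} [Field F] (D : ChevalleyDatum)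
    (hD : D ∈ [chevG2, chevB2, chevD4, chevF4, chevE6, chevE7, chevE8])
    (h2 : D = chevG2 ∨ D = chevB2 → ∃ a : F, a ≠ 0 ∧ a ≠ 1) :
    commutator ↥(D.group F) = ⊤ := by
  apply perfect_of_simple D hD (nxAll_of_mem D hD) (hcert_of_mem D hD)
  intro j hj τ
  have hD' := hD
  simp only [List.mem_cons, List.not_mem_nil, or_false] at hD'
  rcases hD' with rfl | rfl | rfl | rfl | rfl | rfl | rfl
  · -- G2
    obtain ⟨a, ha0, ha1⟩ := h2 (Or.inl rfl)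
    obtain ⟨c00, c11, c10, c01, l0, l1⟩ := cartan_G2
    have hr : chevG2.rank = 2 := rfl
    rw [hr] at hj
    by_cases hsq : a ^ 2 = 1
    · have ham := eq_neg_one_of_sq a hsq ha1
      have h11 : (-1 : F) ≠ 1 := ham ▸ ha1
      interval_cases j
      · refine derived_of_torus _ hD 1 _ (by rw [hr]; omega) l0 (-1) (neg_ne_zero.mpr one_ne_zero) ?_ τ
        rw [c10, neg_one_zpow_neg_one]
        exact h11
      · refine derived_of_torus _ hD 0 _ (by rw [hr]; omega) l1 (-1) (neg_ne_zero.mpr one_ne_zero) ?_ τ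
        rw [c01, neg_one_zpow_neg_three]
        exact h11
    · interval_cases j
      · refine derived_of_torus _ hD 0 _ (by rw [hr]; omega) l0 a ha0 ?_ τ
        rw [c00, zpow_ofNat]
        exact hsq
      · refine derived_of_torus _ hD 1 _ (by rw [hr]; omega) l1 a ha0 ?_ τ
        rw [c11, zpow_ofNat]
        exact hsq
  · -- B2
    obtain ⟨a, ha0, ha1⟩ := h2 (Or.inr rfl)
    obtain ⟨c00, c11, c10, l0, l1⟩ := cartan_B2
    have hr : chevB2.rank = 2 := rfl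
    rw [hr] at hj
    by_cases hsq : a ^ 2 = 1
    · have ham := eq_neg_one_of_sq a hsq ha1
      have h11 : (-1 : F) ≠ 1 := ham ▸ ha1
      interval_cases j
      · refine derived_of_torus _ hD 1 _ (by rw [hr]; omega) l0 (-1) (neg_ne_zero.mpr one_ne_zero) ?_ τ
        rw [c10, neg_one_zpow_neg_one]
        exact h11
      · obtain ⟨e1, e2, e3, e4, e5⟩ := pt_B2_1
        refine derived_of_comm _ hD 2 6 _ (-2) (commRel_of_mem F _ hD 2 6 e2 e3 e4 e5) e1 ?_ τ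
        push_cast
        intro h
        apply h11
        linear_combination h
    · interval_cases j
      · refine derived_of_torus _ hD 0 _ (by rw [hr]; omega) l0 a ha0 ?_ τ
        rw [c00, zpow_ofNat]
        exact hsq
      · refine derived_of_torus _ hD 1 _ (by rw [hr]; omega) l1 a ha0 ?_ τ
        rw [c11, zpow_ofNat]
        exact hsq
  · -- D4
    have hr : chevD4.rank = 4 := rfl
    rw [hr] at hj
    interval_cases j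
    · obtain ⟨e1, e2, e3, e4, e5⟩ := pt_D4_0
      exact derived_of_comm _ hD 6 22 _ (1) (commRel_of_mem F _ hD 6 22 e2 e3 e4 e5) e1 (by simp) τ
    · obtain ⟨e1, e2, e3, e4, e5⟩ := pt_D4_1
      exact derived_of_comm _ hD 1 23 _ (-1) (commRel_of_mem F _ hD 1 23 e2 e3 e4 e5) e1 (by simp) τ
    · obtain ⟨e1, e2, e3, e4, e5⟩ := pt_D4_2
      exact derived_of_comm _ hD 3 22 _ (-1) (commRel_of_mem F _ hD 3 22 e2 e3 e4 e5) e1 (by simp) τ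
    · obtain ⟨e1, e2, e3, e4, e5⟩ := pt_D4_3
      exact derived_of_comm _ hD 2 22 _ (-1) (commRel_of_mem F _ hD 2 22 e2 e3 e4 e5) e1 (by simp) τ
  · -- F4
    have hr : chevF4.rank = 4 := rfl
    rw [hr] at hj
    interval_cases j
    · obtain ⟨e1, e2, e3, e4, e5⟩ := pt_F4_0
      exact derived_of_comm _ hD 7 44 _ (-1) (commRel_of_mem F _ hD 7 44 e2 e3 e4 e5) e1 (by simp) τ
    · obtain ⟨e1, e2, e3, e4, e5⟩ := pt_F4_1
      exact derived_of_comm _ hD 8 40 _ (-1) (commRel_of_mem F _ hD 8 40 e2 e3 e4 e5) e1 (by simp) τ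
    · obtain ⟨e1, e2, e3, e4, e5⟩ := pt_F4_2
      exact derived_of_comm _ hD 2 46 _ (-1) (commRel_of_mem F _ hD 2 46 e2 e3 e4 e5) e1 (by simp) τ
    · obtain ⟨e1, e2, e3, e4, e5⟩ := pt_F4_3
      exact derived_of_comm _ hD 1 47 _ (-1) (commRel_of_mem F _ hD 1 47 e2 e3 e4 e5) e1 (by simp) τ
  · -- E6
    have hr : chevE6.rank = 6 := rfl
    rw [hr] at hj
    interval_cases j
    · obtain ⟨e1, e2, e3, e4, e5⟩ := pt_E6_0
      exact derived_of_comm _ hD 16 66 _ (1) (commRel_of_mem F _ hD 16 66 e2 e3 e4 e5) e1 (by simp) τ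
    · obtain ⟨e1, e2, e3, e4, e5⟩ := pt_E6_1
      exact derived_of_comm _ hD 1 71 _ (-1) (commRel_of_mem F _ hD 1 71 e2 e3 e4 e5) e1 (by simp) τ
    · obtain ⟨e1, e2, e3, e4, e5⟩ := pt_E6_2
      exact derived_of_comm _ hD 5 69 _ (-1) (commRel_of_mem F _ hD 5 69 e2 e3 e4 e5) e1 (by simp) τ
    · obtain ⟨e1, e2, e3, e4, e5⟩ := pt_E6_3
      exact derived_of_comm _ hD 2 70 _ (-1) (commRel_of_mem F _ hD 2 70 e2 e3 e4 e5) e1 (by simp) τ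
    · obtain ⟨e1, e2, e3, e4, e5⟩ := pt_E6_4
      exact derived_of_comm _ hD 3 69 _ (-1) (commRel_of_mem F _ hD 3 69 e2 e3 e4 e5) e1 (by simp) τ
    · obtain ⟨e1, e2, e3, e4, e5⟩ := pt_E6_5
      exact derived_of_comm _ hD 4 68 _ (-1) (commRel_of_mem F _ hD 4 68 e2 e3 e4 e5) e1 (by simp) τ
  · -- E7
    have hr : chevE7.rank = 7 := rfl
    rw [hr] at hj
    interval_cases j
    · obtain ⟨e1, e2, e3, e4, e5⟩ := pt_E7_0
      exact derived_of_comm _ hD 1 125 _ (-1) (commRel_of_mem F _ hD 1 125 e2 e3 e4 e5) e1 (by simp) τ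
    · obtain ⟨e1, e2, e3, e4, e5⟩ := pt_E7_1
      exact derived_of_comm _ hD 7 122 _ (-1) (commRel_of_mem F _ hD 7 122 e2 e3 e4 e5) e1 (by simp) τ
    · obtain ⟨e1, e2, e3, e4, e5⟩ := pt_E7_2
      exact derived_of_comm _ hD 2 124 _ (-1) (commRel_of_mem F _ hD 2 124 e2 e3 e4 e5) e1 (by simp) τ
    · obtain ⟨e1, e2, e3, e4, e5⟩ := pt_E7_3
      exact derived_of_comm _ hD 3 123 _ (-1) (commRel_of_mem F _ hD 3 123 e2 e3 e4 e5) e1 (by simp) τ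
    · obtain ⟨e1, e2, e3, e4, e5⟩ := pt_E7_4
      exact derived_of_comm _ hD 4 122 _ (-1) (commRel_of_mem F _ hD 4 122 e2 e3 e4 e5) e1 (by simp) τ
    · obtain ⟨e1, e2, e3, e4, e5⟩ := pt_E7_5
      exact derived_of_comm _ hD 5 121 _ (-1) (commRel_of_mem F _ hD 5 121 e2 e3 e4 e5) e1 (by simp) τ
    · obtain ⟨e1, e2, e3, e4, e5⟩ := pt_E7_6
      exact derived_of_comm _ hD 6 120 _ (-1) (commRel_of_mem F _ hD 6 120 e2 e3 e4 e5) e1 (by simp) τ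
  · -- E8
    have hr : chevE8.rank = 8 := rfl
    rw [hr] at hj
    interval_cases j
    · obtain ⟨e1, e2, e3, e4, e5⟩ := pt_E8_0
      exact derived_of_comm _ hD 14 233 _ (-1) (commRel_of_mem F _ hD 14 233 e2 e3 e4 e5) e1 (by simp) τ
    · obtain ⟨e1, e2, e3, e4, e5⟩ := pt_E8_1
      exact derived_of_comm _ hD 7 234 _ (-1) (commRel_of_mem F _ hD 7 234 e2 e3 e4 e5) e1 (by simp) τ
    · obtain ⟨e1, e2, e3, e4, e5⟩ := pt_E8_2
      exact derived_of_comm _ hD 6 234 _ (-1) (commRel_of_mem F _ hD 6 234 e2 e3 e4 e5) e1 (by simp) τ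
    · obtain ⟨e1, e2, e3, e4, e5⟩ := pt_E8_3
      exact derived_of_comm _ hD 5 235 _ (-1) (commRel_of_mem F _ hD 5 235 e2 e3 e4 e5) e1 (by simp) τ
    · obtain ⟨e1, e2, e3, e4, e5⟩ := pt_E8_4
      exact derived_of_comm _ hD 4 236 _ (-1) (commRel_of_mem F _ hD 4 236 e2 e3 e4 e5) e1 (by simp) τ
    · obtain ⟨e1, e2, e3, e4, e5⟩ := pt_E8_5
      exact derived_of_comm _ hD 3 237 _ (-1) (commRel_of_mem F _ hD 3 237 e2 e3 e4 e5) e1 (by simp) τ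
    · obtain ⟨e1, e2, e3, e4, e5⟩ := pt_E8_6
      exact derived_of_comm _ hD 2 238 _ (-1) (commRel_of_mem F _ hD 2 238 e2 e3 e4 e5) e1 (by simp) τ
    · obtain ⟨e1, e2, e3, e4, e5⟩ := pt_E8_7
      exact derived_of_comm _ hD 1 239 _ (-1) (commRel_of_mem F _ hD 1 239 e2 e3 e4 e5) e1 (by simp) τ

end Cfsg.Agent.Lib.helper11
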