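import Cfsg.Agent.Lib.helper11.ChevSimple
import Cfsg.Agent.Lib.helper11.ChevPerfOK
import Cfsg.Agent.Lib.helper11.ChevParaOK
import Cfsg.Agent.Lib.helper11.ChevTriOK
import Cfsg.Agent.Lib.helper11.ChevW0OK

/-! Simplicity of Chevalley groups: certificates and the theorem. -/

set_option autoImplicit false

namespace Cfsg.Agent.Lib.helper11

open Cfsg Cfsg.Lie

theorem irr_G2 : (List.range' 0 2).all (irrRow chevG2 [0, 0]) = true := by decide +kernel
theorem irr_B2 : (List.range' 0 2).all (irrRow chevB2 [0, 0]) = true := by decide +kernel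
theorem irr_D4 : (List.range' 0 4).all (irrRow chevD4 [0, 0, 1, 1]) = true := by decide +kernel
theorem irr_F4 : (List.range' 0 4).all (irrRow chevF4 [0, 0, 1, 2]) = true := by decide +kernel
theorem irr_E6 : (List.range' 0 6).all (irrRow chevE6 [0, 3, 0, 2, 3, 4]) = true := by decide +kernel
theorem irr_E7 : (List.range' 0 7).all (irrRow chevE7 [0, 3, 0, 2, 3, 4, 5]) = true := by decide +kernel
theorem irr_E8 : (List.range' 0 8).all (irrRow chevE8 [0, 3, 0, 2, 3, 4, 5, 6]) = true := by decide +kernel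

theorem irrCert_of_mem (D : ChevalleyDatum)
    (hD : D ∈ [chevG2, chevB2, chevD4, chevF4, chevE6, chevE7, chevE8]) : IrrCert D := by
  simp only [List.mem_cons, List.not_mem_nil, or_false] at hD
  rcases hD with rfl | rfl | rfl | rfl | rfl | rfl | rfl
  · exact ⟨[0, 0], fun v hv => all_range' _ 0 2 irr_G2 v (by omega) (by have hr : chevG2.rank = 2 := rfl; omega)⟩
  · exact ⟨[0, 0], fun v hv => all_range' _ 0 2 irr_B2 v (by omega) (by have hr : chevB2.rank = 2 := rfl; omega)⟩
  · exact ⟨[0, 0, 1, 1], fun v hv => all_range' _ 0 4 irr_D4 v (by omega) (by have hr : chevD4.rank = 4 := rfl; omega)⟩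
  · exact ⟨[0, 0, 1, 2], fun v hv => all_range' _ 0 4 irr_F4 v (by omega) (by have hr : chevF4.rank = 4 := rfl; omega)⟩
  · exact ⟨[0, 3, 0, 2, 3, 4], fun v hv => all_range' _ 0 6 irr_E6 v (by omega) (by have hr : chevE6.rank = 6 := rfl; omega)⟩
  · exact ⟨[0, 3, 0, 2, 3, 4, 5], fun v hv => all_range' _ 0 7 irr_E7 v (by omega) (by have hr : chevE7.rank = 7 := rfl; omega)⟩
  · exact ⟨[0, 3, 0, 2, 3, 4, 5, 6], fun v hv => all_range' _ 0 8 irr_E8 v (by omega) (by have hr : chevE8.rank = 8 := rfl; omega)⟩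

theorem w0_exists {F : Type*} [Field F] (D : ChevalleyDatum)
    (hD : D ∈ [chevG2, chevB2, chevD4, chevF4, chevE6, chevE7, chevE8]) :
    ∃ n ∈ D.monomialSubgroup F,
      (D.posUnipotent F).map (MulAut.conj n).toMonoidHom = D.negUnipotent F := by
  obtain ⟨l, hl, hrow⟩ := w0_of_mem D hD
  exact w0_of_rows D hD (nxAll_of_mem D hD) (hcert_of_mem D hD) l hl hrow

/-- Chevalley groups are simple (`G₂`, `B₂` over fields with more than two elements) -/
theorem simple_of_mem {F : Type*} [Field F] (D : ChevalleyDatum)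
    (hD : D ∈ [chevG2, chevB2, chevD4, chevF4, chevE6, chevE7, chevE8])
    (h2 : D = chevG2 ∨ D = chevB2 → ∃ a : F, a ≠ 0 ∧ a ≠ 1) :
    IsSimpleGroup ↥(D.group F) ∧ ¬ IsMulCommutative ↥(D.group F) :=
  simple_of_perfect D hD (nxAll_of_mem D hD) (hcert_of_mem D hD) (tri_of_mem D hD)
    (upcert_of_mem D hD) (fun r hr s hs h1 h2 => commRel_of_mem F D hD r s hr hs h1 h2)
    (irrCert_of_mem D hD) (w0_exists D hD) (perfect_of_mem D hD h2)

end Cfsg.Agent.Lib.helper11
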