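import Mathlib
import Cfsg.Agent.S1453
import Cfsg.Agent.Lib.helper25.S1455Q1

set_option autoImplicit false

namespace Cfsg.Agent.Lib.helper11.S1454F2a

theorem cyc_comm {R : Type*} [Group R] (H : Subgroup R) (h : IsCyclic H) :
    ∀ a ∈ H, ∀ b ∈ H, a * b = b * a := by
  intro a ha b hb
  obtain ⟨g, hg⟩ := h.exists_generator
  obtain ⟨m, hm⟩ := Subgroup.mem_zpowers_iff.mp (hg ⟨a, ha⟩)
  obtain ⟨n, hn⟩ := Subgroup.mem_zpowers_iff.mp (hg ⟨b, hb⟩)
  have ha' : a = (g : R) ^ m := by
    have h1 := congrArg Subtype.val hm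
    simpa using h1.symm
  have hb' : b = (g : R) ^ n := by
    have h1 := congrArg Subtype.val hn
    simpa using h1.symm
  rw [ha', hb', ← zpow_add, ← zpow_add, add_comm]

/-- (F2a) of the S1454 split: the characteristic subgroup `T` of index `p` of a narrow `p`-group of
rank at least 3, and an element `e` whose centralizer in `T` has `p`-rank at most 1. -/
theorem narrow_T {R : Type*} [Group R] [Finite R] (p : ℕ) [Fact p.Prime] (hp : p ≠ 2)
    (hR : IsPGroup p R) (hRn : Cfsg.IsNarrow p R) (hr3 : ¬ Cfsg.PRankLE p 2 R) :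
    ∃ (e : R) (T : Subgroup R), T.Characteristic ∧ T.index = p ∧
      ∀ B : Subgroup R, B ≤ T → (∀ b ∈ B, b * e = e * b) → (∀ b ∈ B, b ^ p = 1) →
        Nat.card B ≤ p := by
  classical
  have hpp : p.Prime := Fact.out
  have h2le := hpp.two_le
  have hRn' : Cfsg.PRankLE p 2 R ∨ ∃ R₀ R₁ : Subgroup R, Nat.card R₀ = p ∧ IsCyclic R₁ ∧
      R₀ ⊓ R₁ = ⊥ ∧ (∀ a ∈ R₀, ∀ b ∈ R₁, a * b = b * a) ∧
      R₀ ⊔ R₁ = Subgroup.centralizer (R₀ : Set R) := hRn
  rcases hRn' with hrk | ⟨R₀, R₁, h0, h1, -, hc, hsup⟩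
  · exact absurd hrk hr3
  have hR0cyc : IsCyclic R₀ := isCyclic_of_prime_card h0
  have hR0comm := cyc_comm R₀ hR0cyc
  have hR1comm := cyc_comm R₁ h1
  obtain ⟨e0, he0⟩ := hR0cyc.exists_generator
  have hcomm_e : ∀ x : R, x * (e0 : R) = (e0 : R) * x → x ∈ R₀ ⊔ R₁ := by
    intro x hx
    rw [hsup, Subgroup.mem_centralizer_iff]
    intro y hy
    obtain ⟨k, hk⟩ := Subgroup.mem_zpowers_iff.mp (he0 ⟨y, hy⟩)
    have hy' : y = (e0 : R) ^ k := by
      have h1 := congrArg Subtype.val hk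
      simpa using h1.symm
    rw [hy']
    exact ((Commute.zpow_right (show Commute x (e0 : R) from hx) k).eq).symm
  have hR0p : ∀ x ∈ R₀, x ^ p = 1 := by
    intro x hx
    have h := pow_card_eq_one' (G := R₀) (x := ⟨x, hx⟩)
    rw [h0] at h
    have h2 := congrArg Subtype.val h
    simpa using h2
  have hCcomm : ∀ x ∈ R₀ ⊔ R₁, ∀ y ∈ R₀ ⊔ R₁, x * y = y * x := by
    have key : ∀ y : R, (∀ a ∈ R₀, a * y = y * a) → (∀ b ∈ R₁, b * y = y * b) →
        ∀ x ∈ R₀ ⊔ R₁, x * y = y * x := by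
      intro y hy0 hy1 x hx
      have hle : R₀ ⊔ R₁ ≤ Subgroup.centralizer ({y} : Set R) := by
        refine sup_le ?_ ?_
        · intro a ha
          rw [Subgroup.mem_centralizer_iff]
          intro z hz
          rw [Set.mem_singleton_iff] at hz
          rw [hz]; exact (hy0 a ha).symm
        · intro b hb
          rw [Subgroup.mem_centralizer_iff]
          intro z hz
          rw [Set.mem_singleton_iff] at hz
          rw [hz]; exact (hy1 b hb).symm
      have h3 := hle hx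
      rw [Subgroup.mem_centralizer_iff] at h3
      exact (h3 y (Set.mem_singleton y)).symm
    intro x hx y hy
    refine key y ?_ ?_ x hx
    · intro a ha
      exact (key a (fun a' ha' => hR0comm a' ha' a ha) (fun b hb => (hc a ha b hb).symm) y hy).symm
    · intro b hb
      exact (key b (fun a ha => hc a ha b hb) (fun b' hb' => hR1comm b' hb' b hb) y hy).symm
  obtain ⟨E, hEmem⟩ : ∃ E : Subgroup R, ∀ x, x ∈ E ↔ x ∈ R₀ ⊔ R₁ ∧ x ^ p = 1 :=
    ⟨{ carrier := {x | x ∈ R₀ ⊔ R₁ ∧ x ^ p = 1}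
       mul_mem' := by
         rintro x y ⟨hx, hxp⟩ ⟨hy, hyp⟩
         refine ⟨mul_mem hx hy, ?_⟩
         rw [(show Commute x y from hCcomm x hx y hy).mul_pow, hxp, hyp, one_mul]
       one_mem' := ⟨one_mem _, one_pow p⟩
       inv_mem' := by
         rintro x ⟨hx, hxp⟩
         exact ⟨inv_mem hx, by rw [inv_pow, hxp, inv_one]⟩ }, fun x => Iff.rfl⟩
  have hR0E : R₀ ≤ E := fun x hx =>
    (hEmem x).mpr ⟨(le_sup_left : R₀ ≤ R₀ ⊔ R₁) hx, hR0p x hx⟩
  have hEea : Cfsg.IsElementaryAbelian p E := by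
    refine And.intro ?_ ?_
    · exact ⟨⟨fun a b => Subtype.ext
        (hCcomm _ ((hEmem _).mp a.2).1 _ ((hEmem _).mp b.2).1)⟩⟩
    · exact fun a ha => ((hEmem a).mp ha).2
  have hEcard_le : Nat.card E ≤ p ^ 2 :=
    Cfsg.Agent.Lib.helper25.S1455Q1.narrow_count p R₀ R₁ E h0 h1 hc
      (fun x hx => ((hEmem x).mp hx).1) (fun x hx => ((hEmem x).mp hx).2)
  have hEmax : ∀ B : Subgroup R, Cfsg.IsElementaryAbelian p B → E ≤ B → B = E := by
    intro B hB hEB
    have hB' : IsMulCommutative B ∧ ∀ a ∈ B, a ^ p = 1 := hB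
    refine le_antisymm ?_ hEB
    intro x hx
    refine (hEmem x).mpr ⟨?_, hB'.2 x hx⟩
    rw [hsup, Subgroup.mem_centralizer_iff]
    intro y hy
    have hyB : y ∈ B := hEB (hR0E hy)
    have h2 := congrArg Subtype.val (hB'.1.is_comm.comm ⟨y, hyB⟩ ⟨x, hx⟩)
    exact h2
  have hE2 : Nat.card E = p ^ 2 := by
    obtain ⟨k, hk⟩ := IsPGroup.iff_card.mp (hR.to_subgroup E)
    have hple : p ≤ Nat.card E := by
      have h2 := Subgroup.card_le_of_le hR0E
      rw [h0] at h2; exact h2
    have hk0 : k ≠ 0 := by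
      rintro rfl
      rw [pow_zero] at hk
      omega
    have hk2 : k ≤ 2 := by
      by_contra hcon
      have h3 : p ^ 3 ≤ p ^ k := Nat.pow_le_pow_right hpp.pos (by omega)
      have h4 : p ^ 2 < p ^ 3 := Nat.pow_lt_pow_right hpp.one_lt (by norm_num)
      omega
    rcases (show k = 1 ∨ k = 2 by omega) with rfl | rfl
    · exfalso
      rw [pow_one] at hk
      have hER0 : R₀ = E := Subgroup.eq_of_le_of_card_ge hR0E (by rw [hk, h0])
      haveI : Nontrivial R₀ :=
        Finite.one_lt_card_iff_nontrivial.mp (by rw [h0]; exact hpp.one_lt)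
      haveI : Nontrivial R :=
        Function.Injective.nontrivial (f := (Subtype.val : ↥R₀ → R)) Subtype.val_injective
      haveI : Nontrivial (Subgroup.center R) := hR.center_nontrivial
      have hZp : IsPGroup p (Subgroup.center R) := hR.to_subgroup _
      obtain ⟨j, hj⟩ := IsPGroup.iff_card.mp hZp
      have hj0 : j ≠ 0 := by
        rintro rfl
        rw [pow_zero] at hj
        have h3 := Finite.one_lt_card_iff_nontrivial.mpr
          (inferInstance : Nontrivial (Subgroup.center R))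
        omega
      have hdvd : p ∣ Nat.card (Subgroup.center R) := by rw [hj]; exact dvd_pow_self p hj0
      obtain ⟨z, hz⟩ := exists_prime_orderOf_dvd_card' p hdvd
      have hzp : (z : R) ^ p = 1 := by
        have h3 := pow_orderOf_eq_one z
        rw [hz] at h3
        have h4 := congrArg Subtype.val h3
        simpa using h4
      have hz1 : (z : R) ≠ 1 := by
        intro h3
        have h4 : z = 1 := Subtype.ext h3
        rw [h4, orderOf_one] at hz
        omega
      have hzC : (z : R) ∈ R₀ ⊔ R₁ := by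
        rw [hsup, Subgroup.mem_centralizer_iff]
        intro y _
        exact Subgroup.mem_center_iff.mp z.2 y
      have hzR0 : (z : R) ∈ R₀ := by rw [hER0]; exact (hEmem _).mpr ⟨hzC, hzp⟩
      have hgen : Subgroup.zpowers (⟨(z : R), hzR0⟩ : R₀) = ⊤ :=
        zpowers_eq_top_of_prime_card h0 (fun h3 => hz1 (congrArg Subtype.val h3))
      have hR0Z : R₀ ≤ Subgroup.center R := by
        intro y hy
        have h3 : (⟨y, hy⟩ : R₀) ∈ Subgroup.zpowers (⟨(z : R), hzR0⟩ : R₀) := by
          rw [hgen]; exact Subgroup.mem_top _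
        obtain ⟨n, hn⟩ := Subgroup.mem_zpowers_iff.mp h3
        have h4 := congrArg Subtype.val hn
        have h5 : y = (z : R) ^ n := by simpa using h4.symm
        rw [h5]
        exact zpow_mem z.2 n
      have htop : R₀ ⊔ R₁ = ⊤ := by
        rw [hsup, eq_top_iff]
        intro x _
        rw [Subgroup.mem_centralizer_iff]
        intro y hy
        exact (Subgroup.mem_center_iff.mp (hR0Z hy) x).symm
      apply hr3
      intro A _ hAp
      exact Cfsg.Agent.Lib.helper25.S1455Q1.narrow_count p R₀ R₁ A h0 h1 hc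
        (by rw [htop]; exact le_top) hAp
    · exact hk
  have key : ∀ T : Subgroup R, ¬ E ≤ T → ∀ B : Subgroup R, B ≤ T → B ≤ E → Nat.card B ≤ p := by
    intro T hnot B hBT hBE
    have hle : Nat.card B ≤ Nat.card ↥(E ⊓ T) := Subgroup.card_le_of_le (le_inf hBE hBT)
    have hdvd : Nat.card ↥(E ⊓ T) ∣ Nat.card E := Subgroup.card_dvd_of_le inf_le_left
    rw [hE2] at hdvd
    obtain ⟨m, hm, hm'⟩ := (Nat.dvd_prime_pow hpp).mp hdvd
    have hm1 : m ≤ 1 := by
      by_contra hcon
      have hm2 : m = 2 := by omega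
      rw [hm2] at hm'
      have heq : E ⊓ T = E := Subgroup.eq_of_le_of_card_ge inf_le_left (by rw [hm', hE2])
      have h3 : E ⊓ T ≤ T := inf_le_right
      rw [heq] at h3
      exact hnot h3
    have h4 : p ^ m ≤ p ^ 1 := Nat.pow_le_pow_right hpp.pos hm1
    rw [pow_one] at h4
    omega
  obtain ⟨hnot, -, -, hchar, hidx⟩ := Cfsg.Agent.S1453.result p hp hR hr3 E hEea hE2 hEmax
  refine ⟨(e0 : R), _, hchar, hidx, ?_⟩
  intro B hBT hBe hBp
  exact key _ hnot B hBT (fun b hb => (hEmem b).mpr ⟨hcomm_e b (hBe b hb), hBp b hb⟩)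

end Cfsg.Agent.Lib.helper11.S1454F2a
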